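import Cfsg.Agent.S1064
import Cfsg.Agent.H209.IF.Defs

/-!
# S5719, `E₇(q)`, `q` odd, `|A|` odd: numbers (helper607)

* `card_E7_lt` : `|E₇(q)| < q ^ 133`;
* `le_relIndex` : from the centraliser in a group containing `T` with index at most two to the centraliser in `T`;
* `no_f`, `false_of_e7` : `q ^ 28 ≤ 2 f` contradicts `f ^ 6 < |T : A|`.
-/

set_option autoImplicit false
set_option linter.unusedSectionVars false

namespace Cfsg.Agent.H607.IFO

open Cfsg Cfsg.Lie Cfsg.Agent.H209.Fxy Subgroup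

universe u

theorem card_E7_lt (F : Type u) [Field F] [Finite F] : Nat.card ↥(chevE7.group F) < Nat.card F ^ 133 := by
  have := Fintype.ofFinite F
  have hq : 1 < Fintype.card F := Fintype.one_lt_card
  have hq0 : 0 < Fintype.card F := by omega
  have hs : ∀ d, Fintype.card F ^ d - 1 ≤ Fintype.card F ^ d := fun d => Nat.sub_le _ _
  rw [Nat.card_eq_fintype_card (α := F)]
  have h1 := Cfsg.Agent.S1064.result (F := F) rfl
  have h3 : Nat.card ↥(chevE7.group F) ≤ Nat.gcd 2 (Fintype.card F - 1) * Nat.card ↥(chevE7.group F) :=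
    Nat.le_mul_of_pos_left _ (Nat.gcd_pos_of_pos_left _ (by norm_num))
  refine lt_of_le_of_lt h3 ?_
  rw [h1]
  have h2 : Fintype.card F ^ 2 - 1 < Fintype.card F ^ 2 := Nat.sub_lt (pow_pos hq0 2) one_pos
  have hp : ∀ d, 0 < Fintype.card F ^ d := fun d => pow_pos hq0 d
  calc Fintype.card F ^ 63 * (Fintype.card F ^ 2 - 1) * (Fintype.card F ^ 6 - 1) * (Fintype.card F ^ 8 - 1) *
        (Fintype.card F ^ 10 - 1) * (Fintype.card F ^ 12 - 1) * (Fintype.card F ^ 14 - 1) * (Fintype.card F ^ 18 - 1)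
      ≤ Fintype.card F ^ 63 * (Fintype.card F ^ 2 - 1) * Fintype.card F ^ 6 * Fintype.card F ^ 8 * Fintype.card F ^ 10 *
        Fintype.card F ^ 12 * Fintype.card F ^ 14 * Fintype.card F ^ 18 := by gcongr <;> exact hs _
    _ < Fintype.card F ^ 63 * Fintype.card F ^ 2 * Fintype.card F ^ 6 * Fintype.card F ^ 8 * Fintype.card F ^ 10 *
        Fintype.card F ^ 12 * Fintype.card F ^ 14 * Fintype.card F ^ 18 := by
          have h4 : Fintype.card F ^ 63 * (Fintype.card F ^ 2 - 1) < Fintype.card F ^ 63 * Fintype.card F ^ 2 :=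
            Nat.mul_lt_mul_of_pos_left h2 (hp 63)
          have key : ∀ {a b : ℕ} (c : ℕ), 0 < c → a < b → a * c < b * c := fun c hc h => Nat.mul_lt_mul_of_pos_right h hc
          exact key _ (hp 18) (key _ (hp 14) (key _ (hp 12) (key _ (hp 10) (key _ (hp 8) (key _ (hp 6) h4)))))
    _ = Fintype.card F ^ 133 := by ring

/-- From `C` to `T ⊓ C`, `|Y : T| ≤ 2`. -/
theorem le_relIndex {Y : Type*} [Group Y] {T C X : Subgroup Y} [Finite Y] (hT : T.index ≤ 2) (hX : X ≤ T ⊓ C) {m : ℕ}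
    (h : m ≤ X.relIndex C) : m ≤ 2 * X.relIndex (T ⊓ C) := by
  have h1 : X.relIndex (T ⊓ C) * (T ⊓ C).relIndex C = X.relIndex C := relIndex_mul_relIndex _ _ _ hX inf_le_right
  have h2 : (T ⊓ C).relIndex C = T.relIndex C := inf_relIndex_right T C
  have h3 : T.relIndex C ≤ T.index := by
    have h4 : T.relIndex ⊤ ≠ 0 := by rw [relIndex_top_right]; exact index_ne_zero_of_finite
    rw [← relIndex_top_right T]
    exact relIndex_le_of_le_right le_top h4
  rw [h2] at h1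
  rw [← h1] at h
  calc m ≤ X.relIndex (T ⊓ C) * T.relIndex C := h
    _ ≤ X.relIndex (T ⊓ C) * 2 := Nat.mul_le_mul_left _ (h3.trans hT)
    _ = _ := mul_comm _ _

theorem no_f {q f n : ℕ} (hq : 3 ≤ q) (hf : q ^ 28 ≤ 2 * f) (hn : n < q ^ 133) : ¬ f ^ 6 < n := by
  intro h
  have h1 : (q ^ 28) ^ 6 ≤ (2 * f) ^ 6 := Nat.pow_le_pow_left hf 6
  have h2 : (q ^ 28) ^ 6 = q ^ 35 * q ^ 133 := by ring
  have h3 : (2 * f) ^ 6 = 64 * f ^ 6 := by ring
  have h4 : 64 ≤ q ^ 35 := by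
    calc 64 ≤ 3 ^ 35 := by norm_num
      _ ≤ q ^ 35 := Nat.pow_le_pow_left hq 35
  have h5 : 64 * q ^ 133 ≤ 64 * f ^ 6 := by
    rw [← h3]
    refine le_trans ?_ h1
    rw [h2]
    exact Nat.mul_le_mul_right _ h4
  have h6 : q ^ 133 ≤ f ^ 6 := Nat.le_of_mul_le_mul_left h5 (by norm_num)
  omega

end Cfsg.Agent.H607.IFO
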